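import Cfsg.Agent.Lib.Q5.T2
import Cfsg.Agent.Lib.Q5.T2b
import Cfsg.Agent.Lib.Q5.T3
import Cfsg.Agent.Lib.PSL2.Trace
import Cfsg.Agent.Lib.Root.SL2

/-!
# Characters of five-dimensional representations of `L₂(11)`
-/

set_option autoImplicit false

namespace Cfsg.Lib.Q5E

open scoped MatrixGroups Matrix
open Cfsg.Lib.Q5 Cfsg.Lib.PSL2 Cfsg.Lib.Root

instance fact_eleven : Fact (Nat.Prime 11) := ⟨by norm_num⟩

/-- `SL₂(11)` -/
abbrev S11 : Type := SL(2, ZMod 11)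

/-- an element from its entries -/
def m2 (a b c d : ZMod 11) (h : a * d - b * c = 1) : S11 := ⟨!![a, b; c, d], by rwa [Matrix.det_fin_two_of]⟩

theorem m2_coe (a b c d : ZMod 11) (h : a * d - b * c = 1) :
    (m2 a b c d h : Matrix (Fin 2) (Fin 2) (ZMod 11)) = !![a, b; c, d] := rfl

/-- companion matrix -/
def cm (t : ZMod 11) : S11 := m2 0 (-1) 1 t (by simp)

theorem isConj_inv {G : Type*} [Group G] {a b : G} (h : IsConj a b) : IsConj a⁻¹ b⁻¹ := by
  obtain ⟨c, rfl⟩ := isConj_iff.1 h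
  exact isConj_iff.2 ⟨c, by group⟩

/-- a transvection -/
def yy : S11 := xU 1

theorem conj_cm {g : S11} {x y : ZMod 11} (h : g 1 0 * x ^ 2 + (g 1 1 - g 0 0) * x * y - g 0 1 * y ^ 2 = 1) :
    IsConj (cm (trS g)) g := by
  have d := sl_det g
  refine isConj_iff.2 ⟨m2 x (g 0 0 * x + g 0 1 * y) y (g 1 0 * x + g 1 1 * y) (by linear_combination h),
    mul_inv_eq_iff_eq_mul.2 ?_⟩
  apply sl_ext <;> rw [sl_mul_apply, sl_mul_apply] <;> simp [cm, trS, m2_coe]
  · linear_combination x * d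
  · linear_combination y * d

set_option synthInstance.maxSize 4000 in
theorem form : ∀ a b c d : ZMod 11, a * d - b * c = 1 → (b = 0 ∧ c = 0 ∧ a = d ∧ (a + d) ^ 2 = 4 ∧ (a + d = 2 → a = 1)) ∨
    (∃ x y, c * x ^ 2 + (d - a) * x * y - b * y ^ 2 = 1) ∨
    ((a + d) ^ 2 = 4 ∧ ∃ x y, -c * x ^ 2 + (a - d) * x * y - -b * y ^ 2 = 1) := by decide +kernel

theorem cls {g : S11} (h : trS g ^ 2 ≠ 4) : IsConj (cm (trS g)) g := by
  rcases form _ _ _ _ (sl_det g) with k | ⟨x, y, k⟩ | k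
  exacts [absurd k.2.2.2.1 h, conj_cm k, absurd k.1 h]

theorem conj_of {g g' : S11} (h : trS g ^ 2 ≠ 4) (e : trS g' = trS g) : IsConj g g' :=
  (cls h).symm.trans (e ▸ cls (e ▸ h))

theorem cls2 {g : S11} (h : trS g = 2) : g = 1 ∨ IsConj yy g ∨ IsConj yy⁻¹ g := by
  have y : IsConj (cm 2) yy⁻¹ := conj_cm (g := yy⁻¹) (x := 0) (y := 1) (by decide +kernel)
  rcases form _ _ _ _ (sl_det g) with ⟨k1, k2, k3, -, k4⟩ | ⟨x, y', k⟩ | ⟨-, x, y', k⟩
  · exact .inl (sl_ext (k4 h) k1 k2 (k3 ▸ k4 h))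
  · exact .inr (.inr (y.symm.trans (h ▸ conj_cm k)))
  · obtain ⟨i1, i2, i3, i4⟩ := sl_inv_apply g
    have := conj_cm (g := g⁻¹) (x := x) (y := y') (by rwa [i1, i2, i3, i4])
    rw [trS_inv, h] at this
    exact .inr (.inl (by simpa using isConj_inv (y.symm.trans this)))

theorem yy_pow (j : ℕ) : yy ^ j = xU (j : ZMod 11) := by
  induction j with
  | zero => simp
  | succ j ih => rw [pow_succ, ih, Nat.cast_succ, xU_add, yy]

theorem yy_cj {s s' : ZMod 11} (h : s * s' = 1) (a : ZMod 11) : IsConj (xU a) (xU (s ^ 2 * a)) :=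
  isConj_iff.2 ⟨m2 s 0 0 s' (by simp [h]), mul_inv_eq_iff_eq_mul.2 (by
    apply sl_ext <;> rw [sl_mul_apply, sl_mul_apply] <;> simp [m2_coe]
    linear_combination (-s * a) * h)⟩

/-- quadratic residues modulo eleven -/
def QR (j : ℕ) : Prop := j % 11 = 1 ∨ j % 11 = 3 ∨ j % 11 = 4 ∨ j % 11 = 5 ∨ j % 11 = 9
/-- non-residues modulo eleven -/
def NR (j : ℕ) : Prop := j % 11 = 2 ∨ j % 11 = 6 ∨ j % 11 = 7 ∨ j % 11 = 8 ∨ j % 11 = 10

theorem QR.conj {j : ℕ} (h : QR j) : IsConj yy (yy ^ j) := by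
  obtain ⟨s, s', h1, h2⟩ : ∃ s s' : ZMod 11, s * s' = 1 ∧ ((j % 11 : ℕ) : ZMod 11) = s ^ 2 * 1 := by
    rcases h with h | h | h | h | h <;> rw [h] <;> decide +kernel
  rw [yy_pow, ← ZMod.natCast_mod, h2]
  exact yy_cj h1 1

theorem NR.conj {j : ℕ} (h : NR j) : IsConj yy⁻¹ (yy ^ j) := by
  obtain ⟨s, s', h1, h2⟩ : ∃ s s' : ZMod 11, s * s' = 1 ∧ ((j % 11 : ℕ) : ZMod 11) = s ^ 2 * -1 := by
    rcases h with h | h | h | h | h <;> rw [h] <;> decide +kernel
  rw [yy_pow, ← ZMod.natCast_mod, h2, yy, ← xU_neg]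
  exact yy_cj h1 _

set_option synthInstance.maxSize 4000 in
theorem kinds : ∀ t : ZMod 11, (t = 2 ∨ -t = 2) ∨ t ^ 2 ≠ 4 ∧ ((∃ z w, z * w = 1 ∧ z + w = t) ∨
    cm t ^ 3 = 1 ∨ cm t ^ 3 = -1 ∨ trS (cm t ^ 3) = 0) := by decide +kernel

variable {F : Type*} [Field F] {ρ : S11 →* G5 F}

/-- a faithful representation of `L₂(11)` -/
structure Rp (ρ : S11 →* G5 F) : Prop where
  neg : ρ (-1) = 1
  ne : ρ yy ≠ 1
  det : ∀ g, (ρ g).1.det = 1

/-- the character -/
def ch (ρ : S11 →* G5 F) (g : S11) : F := (ρ g).1.trace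

theorem ch_conj {g g' : S11} (e : IsConj g g') : ch ρ g = ch ρ g' := trace_conj (ρ.map_isConj e)

theorem ch_pow (p : ℕ) [Fact p.Prime] [CharP F p] (g : S11) : ch ρ (g ^ p) = ch ρ g ^ p := by
  rw [ch, map_pow, Units.val_pow_eq_pow_val, T3.trace_pow, ch]

theorem ch_one : ch ρ 1 = 5 := by simp [ch]

namespace Rp

variable (h : Rp ρ)
include h

theorem map_neg (g : S11) : ρ (-g) = ρ g := by rw [← neg_one_mul, map_mul, h.neg, one_mul]

theorem ch_neg (g : S11) : ch ρ (-g) = ch ρ g := by rw [ch, h.map_neg, ch]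

theorem map {K : Type*} [Field K] (f : F →+* K) : Rp ((Matrix.GeneralLinearGroup.map f).comp ρ) :=
  ⟨by simp [h.neg], fun e => h.ne (map_inj f (e.trans (map_one _).symm)), fun g => by
    rw [MonoidHom.comp_apply, map_val, ← RingHom.mapMatrix_apply, ← RingHom.map_det, h.det, map_one]⟩

theorem det_ne [IsAlgClosed F] (h11 : (11 : F) ≠ 0) : ((ρ yy).1 - 1).det ≠ 0 := fun z => by
  classical
  obtain ⟨g, hg⟩ := isConj_iff.1 (QR.conj (j := 4) (by simp [QR]))
  obtain ⟨l, a, b, d, c⟩ := T2a.ex_ev (x := ρ yy) (n := 11) (by simpa using h11)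
    (by rw [← map_pow, show yy ^ 11 = 1 by decide +kernel, map_one])
  obtain ⟨τ, hτ⟩ := c (ρ g) 4 (by rw [← map_pow, ← hg, map_mul, map_mul, map_inv])
  obtain ⟨i, hi⟩ := not_forall.1 (mt b h.ne)
  have o : orderOf (l i) = 11 := orderOf_eq_prime (a i) hi
  have inj : Function.Injective fun j : Fin 5 => (τ ^ j.1) i := fun j j' e => by
    have := pow_eq_pow_iff_modEq.1 ((hτ j i).symm.trans ((congrArg l e).trans (hτ j' i)))
    rw [o] at this
    exact (by decide : ∀ j j' : Fin 5, 4 ^ j.1 ≡ 4 ^ j'.1 [MOD 11] → j = j') _ _ this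
  have := T3.rank_le_four z
  rw [d, Finset.filter_true_of_mem fun m _ => ?_, Finset.card_fin] at this
  · omega
  · obtain ⟨j, rfl⟩ := inj.surjective_of_finite (Equiv.refl _) m
    rw [hτ, ne_eq, ← orderOf_dvd_iff_pow_eq_one, o]
    exact (by decide : ∀ j : Fin 5, ¬ 11 ∣ 4 ^ j.1) j

theorem sum (h11 : (11 : F) ≠ 0) : ∑ j ∈ Finset.range 11, (ρ yy).1 ^ j = 0 := by
  have := (h.map (algebraMap F (AlgebraicClosure F))).det_ne (by rwa [← map_ofNat (algebraMap F _), map_ne_zero])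
  have d : ((ρ yy).1 - 1).det ≠ 0 := fun z => this (by
    rw [MonoidHom.comp_apply, map_val, ← RingHom.mapMatrix_apply,
      ← map_one (RingHom.mapMatrix (algebraMap F (AlgebraicClosure F))), ← map_sub, ← RingHom.map_det, z, map_zero])
  refine ((Matrix.isUnit_iff_isUnit_det _).2 d.isUnit).mul_left_cancel ?_
  rw [mul_geom_sum, ← Units.val_pow_eq_pow_val, ← map_pow, show yy ^ 11 = 1 by decide +kernel, map_one, Units.val_one,
    sub_self, mul_zero]

theorem sum_ch (h11 : (11 : F) ≠ 0) (g : S11) : ∑ j ∈ Finset.range 11, ch ρ (g * yy ^ j) = 0 := by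
  simp only [ch, map_mul, map_pow, Units.val_mul, Units.val_pow_eq_pow_val]
  rw [← Matrix.trace_sum, ← Finset.mul_sum, h.sum h11, mul_zero, Matrix.trace_zero]

theorem ch_yy (h11 : (11 : F) ≠ 0) : 5 * (1 + ch ρ yy + ch ρ yy⁻¹) = 0 := by
  have := h.sum_ch h11 1
  have q : ∀ j, QR j → ch ρ (yy ^ j) = ch ρ yy := fun j e => (ch_conj e.conj).symm
  have n : ∀ j, NR j → ch ρ (yy ^ j) = ch ρ yy⁻¹ := fun j e => (ch_conj e.conj).symm
  simp only [Finset.sum_range_succ, Finset.sum_range_zero, one_mul] at this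
  rw [pow_zero, ch_one, q 1, n 2, q 3, q 4, q 5, n 6, n 7, n 8, q 9, n 10] at this
  · linear_combination this
  all_goals simp [QR, NR]

theorem ch_split (h11 : (11 : F) ≠ 0) {g : S11} (h4 : trS g ^ 2 ≠ 4) {z w : ZMod 11} (h1 : z * w = 1)
    (h2 : z + w = trS g) : ch ρ g = 0 := by
  have := h.sum_ch h11 (m2 z 0 0 w (by simp [h1]))
  rw [Finset.sum_congr rfl fun j _ => (ch_conj (conj_of h4 (by
    rw [yy_pow, ← h2, trS, sl_mul_apply, sl_mul_apply]; simp [m2_coe]))).symm] at this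
  simpa [h11] using this

theorem ch_inv (h2 : (2 : F) ≠ 0) {g : S11} (h0 : trS g = 0) : ch ρ g = 1 := by
  let f := algebraMap F (AlgebraicClosure F)
  have k := h.map f
  set σ := (Matrix.GeneralLinearGroup.map f).comp ρ
  haveI : NeZero (2 : AlgebraicClosure F) := ⟨by rwa [← map_ofNat f, map_ne_zero]⟩
  let b : S11 := m2 1 3 3 (-1) (by decide +kernel)
  have n : σ (cm 0) ≠ 1 := fun e => k.ne (by
    have h3 : σ yy ^ 3 = 1 := by
      have : σ (cm 0 * yy) = σ yy := by rw [map_mul, e, one_mul]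
      rw [← this, ← map_pow, show (cm 0 * yy) ^ 3 = -1 by decide +kernel, k.neg]
    have h4 : σ yy ^ 11 = 1 := by rw [← map_pow, show yy ^ 11 = 1 by decide +kernel, map_one]
    simpa using pow_gcd_eq_one.2 ⟨h3, h4⟩)
  have c : ∀ s : S11, trS s = 0 → IsConj (σ (cm 0)) (σ s) := fun s e =>
    σ.map_isConj (conj_of (by decide +kernel) (e.trans (by decide +kernel)))
  have q : σ (cm 0) * σ (cm 0) = 1 := by rw [← map_mul, show cm 0 * cm 0 = -1 by decide +kernel, k.neg]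
  have c2 := c (b * cm 0) (by decide +kernel)
  rw [map_mul] at c2
  have := (ta_of_pure q n (k.det _) (s := σ b) (by
    rw [← map_mul, ← map_mul, ← k.map_neg, show -(b * cm 0) = cm 0 * b by decide +kernel])
    (fun e => n (by rw [e, q] at c2; exact isConj_one_left.1 c2)) (c b (by decide +kernel)) c2).trace
  rw [trace_conj (c g h0), MonoidHom.comp_apply, map_val, ← AddMonoidHom.map_trace] at this
  exact f.injective (this.trans (map_one f).symm)

variable (p : ℕ) [Fact p.Prime] [CharP F p]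

theorem gen (h11 : (11 : F) ≠ 0) {g : S11} (h4 : trS g ^ 2 ≠ 4) : ch ρ g ^ p = ch ρ g ∧ ch ρ g⁻¹ = ch ρ g := by
  have i : IsConj g g⁻¹ := conj_of h4 (trS_inv g)
  refine ⟨?_, (ch_conj i).symm⟩
  rcases kinds (trS g) with (e | e) | ⟨-, ⟨z, w, h1, h2⟩ | e⟩
  · exact absurd (by rw [e]; norm_num) h4
  · exact absurd (by rw [← neg_sq, e]; norm_num) h4
  · rw [h.ch_split h11 h4 h1 h2, zero_pow (Fact.out : p.Prime).ne_zero]
  have h6 : ρ g ^ 6 = 1 := by
    rw [← isConj_one_right, ← map_pow]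
    refine IsConj.trans ?_ (ρ.map_isConj ((cls h4).pow 6))
    rw [show 6 = 3 + 3 from rfl, pow_add]
    rcases e with e | e | e
    · simp [e]
    · simp [e]
    · rw [mul_self_of_trS e, h.neg]
  refine frobenius_inj F p ?_
  rw [frobenius_def, frobenius_def, ← ch_pow, ← ch_pow, ← pow_mul]
  have : p * p % 6 = p % 6 ∨ (p * p + p) % 6 = 0 := by
    rw [Nat.add_mod, Nat.mul_mod]
    have : p % 6 < 6 := Nat.mod_lt _ (by norm_num)
    interval_cases p % 6 <;> simp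
  rcases this with e | e
  · rw [ch, ch, map_pow, map_pow, pow_eq_pow_mod _ h6, e, ← pow_eq_pow_mod _ h6]
  · rw [ch_conj (i.pow p), ch, ch, map_pow, map_pow, map_inv, inv_pow, eq_inv_of_mul_eq_one_left
      (by rw [← pow_add, pow_eq_pow_mod _ h6, e, pow_zero] : ρ g ^ (p * p) * ρ g ^ p = 1)]

/-- reduction to class representatives -/
theorem ind {Q : S11 → Prop} (hn : ∀ g, Q (-g) → Q g) (hc : ∀ g g', IsConj g g' → Q g → Q g') (h1 : Q 1) (h2 : Q yy)
    (h3 : Q yy⁻¹) (h4 : ∀ g, trS g ^ 2 ≠ 4 → Q g) (g : S11) : Q g := by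
  have _ := h
  have k : ∀ g, trS g = 2 → Q g := fun g e => by
    rcases cls2 e with rfl | e | e
    exacts [h1, hc _ _ e h2, hc _ _ e h3]
  rcases kinds (trS g) with (e | e) | ⟨e, -⟩
  exacts [k g e, hn g (k _ (by rw [trS_neg, e])), h4 g e]

theorem fix (h11 : (11 : F) ≠ 0) (hp : QR p) (g : S11) : ch ρ g ^ p = ch ρ g := by
  refine h.ind (Q := fun g => ch ρ g ^ p = ch ρ g) (fun g e => by rwa [h.ch_neg] at e)
    (fun g g' e a => by rwa [← ch_conj e]) ?_ ?_ ?_ (fun g e => (h.gen p h11 e).1) g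
  · rw [← ch_pow, one_pow]
  · rw [← ch_pow, ch_conj hp.conj]
  · rw [← ch_pow, inv_pow, ch_conj (isConj_inv hp.conj)]

theorem pm (h11 : (11 : F) ≠ 0) (hp : NR p) (g : S11) : ch ρ g⁻¹ = ch ρ g ^ p := by
  refine h.ind (Q := fun g => ch ρ g⁻¹ = ch ρ g ^ p) (fun g e => by rwa [h.ch_neg, inv_neg, h.ch_neg] at e)
    (fun g g' e a => by rwa [← ch_conj e, ← ch_conj (isConj_inv e)]) ?_ ?_ ?_
    (fun g e => (h.gen p h11 e).2.trans (h.gen p h11 e).1.symm) g
  · rw [← ch_pow, one_pow, inv_one]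
  · rw [← ch_pow, ch_conj hp.conj]
  · rw [← ch_pow, inv_pow, ch_conj (isConj_inv hp.conj)]

theorem real (e : ch ρ yy⁻¹ = ch ρ yy) (g : S11) : ch ρ g⁻¹ = ch ρ g :=
  h.ind (Q := fun g => ch ρ g⁻¹ = ch ρ g) (fun g e => by rwa [h.ch_neg, inv_neg, h.ch_neg] at e)
    (fun g g' e a => by rwa [← ch_conj e, ← ch_conj (isConj_inv e)]) (by rw [inv_one]) e
    (by rw [inv_inv, e]) (fun g a => (ch_conj (conj_of a (trS_inv g))).symm) g

/-- In characteristic three the character is determined by its value on an element of order eleven. -/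
theorem eq_three [CharP F 3] {σ : S11 →* G5 F} (k : Rp σ) (e : ch ρ yy = ch σ yy) (g : S11) : ch ρ g = ch σ g := by
  haveI : Fact (Nat.Prime 3) := ⟨Nat.prime_three⟩
  have n : ∀ m : ℕ, ¬ 3 ∣ m → (m : F) ≠ 0 := fun m a b => a ((CharP.cast_eq_zero_iff F 3 m).1 b)
  have h11 : (11 : F) ≠ 0 := n 11 (by norm_num)
  refine h.ind (Q := fun g => ch ρ g = ch σ g) (fun g e => by rwa [h.ch_neg, k.ch_neg] at e)
    (fun g g' e a => by rwa [← ch_conj e, ← ch_conj e]) (by rw [ch_one, ch_one]) e ?_ (fun g a => ?_) g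
  · exact mul_left_cancel₀ (n 5 (by norm_num)) (by
      push_cast; linear_combination h.ch_yy h11 - k.ch_yy h11 - 5 * e)
  rcases kinds (trS g) with (b | b) | ⟨-, ⟨z, w, h1, h2⟩ | b⟩
  · exact absurd (by rw [b]; norm_num) a
  · exact absurd (by rw [← neg_sq, b]; norm_num) a
  · rw [h.ch_split h11 a h1 h2, k.ch_split h11 a h1 h2]
  refine frobenius_inj F 3 ?_
  rw [frobenius_def, frobenius_def, ← ch_pow, ← ch_pow, ← ch_conj ((cls a).pow 3), ← ch_conj ((cls a).pow 3)]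
  rcases b with b | b | b
  · rw [b, ch_one, ch_one]
  · rw [b, h.ch_neg, k.ch_neg, ch_one, ch_one]
  · rw [h.ch_inv (n 2 (by norm_num)) b, k.ch_inv (n 2 (by norm_num)) b]

end Rp

end Cfsg.Lib.Q5E
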