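import Cfsg.Agent.Lib.Pres.U42
import Cfsg.Agent.Lib.Grp.Sch
import Cfsg.Agent.Lib.Mathieu.Classes
import Cfsg.Agent.Lib.Unitary.SmallField

/-!
# Power maps on the conjugacy classes of `U₄(2)` and `M₁₁`
-/

set_option autoImplicit false
set_option maxRecDepth 100000

namespace Cfsg.Lib.Q5E

open Cfsg.Lib.Calc Cfsg.Lib.Grp Cfsg.Lib.Mathieu Cfsg.Lib.Mult Cfsg.Lib.Asch
open Cfsg.Lib.Golay (memL memL_iff)

/-- `M₁₁`: cubing fixes the classes of elements of order prime to three.
Hint: `Mathieu.clsS11`, `Grp.Classes.forall_of`, `Grp.trAny_iff` with `Mathieu.chS11`, `Rep.powC`. -/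
theorem m11_pow {X : Type*} [Group X] (h : Spor.IsoM11 X) (x : X) : IsConj (x ^ 9) (x ^ 3) := by
  obtain ⟨e⟩ := h
  have := clsS11.forall_of (P := fun x => IsConj (x ^ 9) (x ^ 3))
    (t := fun p => trAny 24 5 L12.tail [1, 2, 3] (powC 24 5 p.1 9) (powC 24 5 p.1 3))
    (fun x _ k _ h => by
      rw [conj_pow, conj_pow]
      exact (isConj_iff.2 ⟨k, rfl⟩).symm.trans (h.trans (isConj_iff.2 ⟨k, rfl⟩)))
    (fun x _ p hx _ t => by
      obtain ⟨k, -, hk⟩ := (trAny_iff inj_pt (faithful_P24.subgroup _) (by norm_num) (by norm_num) chS11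
        (hx.powC (by norm_num) 9) (hx.powC (by norm_num) 3) _).1 t
      exact isConj_iff.2 ⟨k, hk⟩) (by decide +kernel) (e x) trivial
  simpa using e.symm.toMonoidHom.map_isConj this

/-- The letters of `Pres.U42` on 27 points. -/
def envU (c : ℕ) : ℕ := [36485634846548906633991799739614356408352,
  4875262249279287860081597679778747015470,
  21016059979711971102275841429297278293554,
  3469462265467108156289083927217300084768,
  16467238928052552794460381469739568162848,
  10344680857907053956011024596032156706449].getD c 36485634846548906633991799739614356408352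

/-- A stabiliser chain. -/
def Lu : List (ℕ × List ℕ) := [(8, [36485634846548906633991799739614356408352, 4542605754330687262223242456035469858894, 27230208068250334496193380810479444151577, 31914091942676925296970186345301208708106, 23339594411765115896802789800661597249204, 15129704241483299302493437502932429381265, 32710163238647492591385119316427289477422, 473333373227982603251485067745334613418, 6572756826922478191800125188076930940466, 21016059979711971102275841429297278293554, 35021357805044439317416598675256911317423, 8623723976770740873173850494204402774048, 15851467132749699618450023523029084035553, 30179888692674642949257122622905083634145, 27672970591823347896978668107707507327769, 31579307070806370256396328558926961370707, 19540514231993159902920881251672153437418, 4875262249279287860081597679778747015470, 14442071617029367609041513329356692074646, 3469462265467108156289083927217300084768, 31844464920577616991190146647062565403448, 10344680857907053956011024596032156706449, 16467238928052552794460381469739568162848,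 26302148519573781053954102251007905649145, 7179836962233143555337080040871204172338, 14643540550307671133037495905208498622983, 24819943197191667954087390484830583661585]),
  (18, [36485634846548906633991799739614356408352, 15075045435625507254736627118771533600553, 18790887742282826430986218713861498923700, 29384217066731345104382360340353618347827, 2456722824641664141545082664780959929939, 3818071161275001571950455178401044351076, 4141231987785224189284367361230533748303, 34828453579510185437752385724971026056623, 32724986821082375932732942423353737153614, 25555217387233684648590659557751230879141]),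
  (7, [36485634846548906633991799739614356408352, 36444120307116510684589503203194139151447, 35492410748316643406071311421076909698839, 35945939722270873301154766894049784868656, 36287509359220361756583692206671972579124, 35858613059808498197815142320636382274992, 35858593264454199915564681036497038675735, 35944996126541673205872204884329723891056]),
  (24, [36485634846548906633991799739614356408352, 35858610585433784677829397917866698508969, 35945358309054011724506204035484941603892, 35545267538133956993769546585631556471575]),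
  (15, [36485634846548906633991799739614356408352, 36484929155600963962203460745082662409289, 36485571754310882475194497510254545634996])]

/-- The classes. -/
def cu : List (ℕ × ℕ) := [(36485634846548906633991799739614356408352, 25920),
  (36296855223276373355360647013892400168489, 48),
  (36220976543113829165924730589316976677350, 576),
  (17874565405673271801619239810652200983956, 12),
  (11543500666642982664345749272930624554157, 12),
  (25190385380072093746202712686497583288622, 54),
  (34760827535774067128150707042534085057267, 5),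
  (1633854982039966790655033581339853703987, 9),
  (29203371880944389102306819147257027999540, 9),
  (35998182607548786234712797735628965070313, 36),
  (35608281885314481620008049867178689276407, 36),
  (36138001095100102137560914123602869598377, 12),
  (33499792431853120802945396700344227237302, 72),
  (35920026911113592593950517830041757428342, 8),
  (7691681730331368900485245150856107108469, 72),
  (36138706055881298607414598624769465456000, 96),
  (36128064727241811998169871117116740111136, 108),
  (23855168485669442914416324160688808956387, 18),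
  (11720264259939857868593664061042933772738, 648),
  (25190620707997170766257075660253577282188, 648)]

/-- Words for the entries of `Lu` and `cu`. -/
def wu : List (List ℕ) := [[], [5, 1], [1, 1], [5, 2], [3, 3, 1], [5, 4], [1, 3], [2, 3, 5], [2, 4], [2], [3, 1], [3, 3], [1, 5, 4], [1, 5], [1, 5, 1], [1, 4, 2, 4], [3, 5], [1], [1, 4, 1], [3], [4, 2, 4], [5], [4], [4, 5, 4], [2, 3], [4, 1], [4, 5, 2], [], [1, 4, 1, 5], [1, 4, 1, 1, 4], [3, 2, 5], [1, 3, 3, 2, 3, 2], [2, 4, 1, 3, 1], [5, 2, 3, 2], [2, 5, 4, 5, 1], [5, 1, 4], [1, 5, 1, 1, 3], [], [1, 5, 1, 3, 3, 1, 3], [4, 1, 3, 5, 2, 5], [2, 3, 5, 3, 5, 1, 4], [1, 3, 3, 5], [5, 1, 5, 4, 2, 3], [1, 1, 5, 1, 3, 3, 1], [1, 1, 3, 5, 4, 2, 4], [], [5, 4, 5, 4, 2], [3, 1, 5, 1, 3, 1, 5, 1], [1, 3, 5, 3, 5], [], [4, 5, 4, 1, 3, 2, 5], [2, 5, 2, 3, 1, 4, 5], [], [5, 1, 5, 4, 5, 2, 5], [1, 1, 3, 1, 3, 2], [2, 4, 2, 3, 5, 1], [1, 5, 3, 5, 3, 3, 2], [1, 1, 4, 1, 3, 2], [1, 1, 5, 1, 3, 1, 5], [1, 4, 2, 5, 4, 1, 5, 2], [2, 5, 3, 2, 3], [3, 1, 4, 1, 5, 4, 2, 5], [5, 1, 3, 5, 1, 3, 2,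 3], [1, 1, 4, 2, 5, 2, 4], [1, 3, 1, 1, 3, 3, 5, 4, 2], [5, 1, 4, 1, 3, 1, 5, 4], [4, 2, 5, 4, 2, 5], [1, 1, 3, 1, 3, 3, 5, 4, 2], [4, 2, 5, 2, 4, 5, 3], [1, 1, 4, 2, 5, 1, 1, 3, 2], [1, 1, 5, 4, 2, 3, 1, 5, 4], [1, 1, 3, 5, 2, 4, 1, 3, 5]]

/-- The table of a word. -/
noncomputable def evU (l : List ℕ) : ℕ :=
  List.rec (motive := fun _ => ℕ) (idc 27 5) (fun c _ ih => forceN ih (mul 27 5 (envU c))) l

theorem rep_envU (c : ℕ) : Rep 27 5 (finPt 27) (toPerm 27 5 (envU c)) (envU c) := rep_toPerm (by
  by_cases h : c < 6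
  · exact (by decide +kernel : ∀ c < 6, permOK 27 5 (envU c) = true) c h
  · rw [envU, List.getD_eq_default _ _ (by simpa using h)]; decide +kernel)

theorem rep_evU (l : List ℕ) :
    Rep 27 5 (finPt 27) (l.map fun c => toPerm 27 5 (envU c)).prod (evU l) := by
  induction l with
  | nil => exact Rep.one (by norm_num)
  | cons c l ih =>
    change Rep _ _ _ _ (forceN _ _)
    rw [forceN_eq]
    exact (rep_envU c).mul ih

theorem evU_one {l : List ℕ} (h : evU l = idc 27 5) : (l.map fun c => toPerm 27 5 (envU c)).prod = 1 :=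
  ((rep_evU l).eq_one_iff' (inj_finPt 27) (faithful_finPt 27) (by norm_num)).2 h

theorem ivU : ∀ c < 6, evU [get 5 Pres.U42.iv c, c] = idc 27 5 := by decide +kernel
theorem relU : ∀ t ∈ Pres.U42.rels, evU (t.toList (get 5 Pres.U42.iv)) = idc 27 5 := by decide +kernel
theorem wordU : flat Lu ++ cu.map Prod.fst = wu.map evU := by decide +kernel
theorem wkU : Mathieu.wOK 27 5 (fun c => memL c (flat Lu)) Lu [] = true := by decide +kernel
theorem cenU : cenOK 27 5 Lu [1, 2, 3] cu = true := by decide +kernel
theorem ncjU : ncjOK 27 5 Lu [1, 2, 3] cu = true := by decide +kernel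
theorem powU : allP cu (fun p => band (Nat.beq (powC 27 5 p.1 180) (idc 27 5))
    (band (trAny 27 5 Lu [1, 2, 3] (powC 27 5 p.1 7) p.1) (trAny 27 5 Lu [1, 2, 3] (powC 27 5 p.1 13) p.1))) = true := by
  decide +kernel

theorem su42_pow (x : SU 4 F4 2) : x ^ 180 = 1 ∧ IsConj (x ^ 7) x ∧ IsConj (x ^ 13) x := by
  obtain ⟨γ, P⟩ := Pres.U42.pr
  have hc := Pres.U42.card
  have : Finite (SU 4 F4 2) := Nat.finite_of_card_ne_zero (by rw [hc]; norm_num)
  have hL : Lab (fun c => toPerm 27 5 (envU c)) Pres.U42.iv := ⟨by simpa using evU_one (l := [0]) (by decide +kernel),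
    fun c => by
      by_cases h : c < 6
      · simpa using evU_one (ivU c h)
      · rw [get_eq_zero (n := 6) (by decide +kernel) (not_lt.1 h)]
        have : envU c = envU 0 := List.getD_eq_default _ _ (by simpa using h)
        simpa [this] using evU_one (l := [0, 0]) (by decide +kernel)⟩
  obtain ⟨φ, hφ⟩ := P.pres _ _ hL fun t ht => by
    rw [← W.prod_toList hL.inv]
    exact evU_one (relU t ht)
  have hm : ∀ c ∈ flat Lu ++ cu.map Prod.fst, ∃ g ∈ φ.range, Rep 27 5 (finPt 27) g c := fun c hc => by
    rw [wordU] at hc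
    obtain ⟨l, -, rfl⟩ := List.mem_map.1 hc
    refine ⟨_, list_prod_mem fun g hg => ?_, rep_evU l⟩
    obtain ⟨c, -, rfl⟩ := List.mem_map.1 hg
    exact ⟨_, hφ c⟩
  have h1 : WChain 27 5 (finPt 27) Lu φ.range := wChain_of_wOK (mem := fun c => memL c (flat Lu))
    (fun c hc => hm c (List.mem_append_left _ (memL_iff.1 hc))) wkU
  have h2 : chSize Lu = 25920 := by decide +kernel
  have h3 : Nat.card φ.range ≤ 25920 := hc ▸ Nat.card_le_card_of_surjective _ φ.rangeRestrict_surjective
  have ch : Chn 27 5 (finPt 27) Lu φ.range := ⟨h1, h1.sChain (inj_finPt 27) (h2 ▸ h3)⟩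
  have cs : Classes 27 5 (finPt 27) φ.range cu := .of_clsOK (inj_finPt 27) (faithful_finPt 27) (by norm_num)
    (by norm_num) ch (fun c hc => hm c (List.mem_append_right _ hc)) cenU ncjU
  obtain ⟨e, he⟩ := equiv_of_range_eq (f := φ) rfl (by rw [ch.card (inj_finPt 27), h2, hc])
  have hi : Function.Injective φ := fun a b h => e.injective (Subtype.ext (by rw [he, he, h]))
  have key := cs.forall_of (P := fun x => x ^ 180 = 1 ∧ x ∈ cl φ.range (x ^ 7) ∧ x ∈ cl φ.range (x ^ 13))
    (t := fun p => band (Nat.beq (powC 27 5 p.1 180) (idc 27 5))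
      (band (trAny 27 5 Lu [1, 2, 3] (powC 27 5 p.1 7) p.1) (trAny 27 5 Lu [1, 2, 3] (powC 27 5 p.1 13) p.1)))
    (fun x _ k hk h => by
      simp only [conj_pow]
      exact ⟨by simp [h.1], cl_trans (cl_trans (cl_symm (conj_mem_cl hk)) h.2.1) (conj_mem_cl hk),
        cl_trans (cl_trans (cl_symm (conj_mem_cl hk)) h.2.2) (conj_mem_cl hk)⟩)
    (fun x _ p hx _ t => by
      simp only [band_eq_true, beq_iff] at t
      exact ⟨((hx.powC (by norm_num) 180).eq_one_iff' (inj_finPt 27) (faithful_finPt 27) (by norm_num)).2 t.1,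
        (trAny_iff (inj_finPt 27) (faithful_finPt 27) (by norm_num) (by norm_num) ch
          (hx.powC (by norm_num) 7) hx _).1 t.2.1,
        (trAny_iff (inj_finPt 27) (faithful_finPt 27) (by norm_num) (by norm_num) ch
          (hx.powC (by norm_num) 13) hx _).1 t.2.2⟩) powU (φ x) ⟨x, rfl⟩
  obtain ⟨a, ⟨_, ⟨k, rfl⟩, b⟩, ⟨_, ⟨j, rfl⟩, c⟩⟩ := key
  exact ⟨hi (by simpa using a), isConj_iff.2 ⟨k, hi (by simpa using b)⟩, isConj_iff.2 ⟨j, hi (by simpa using c)⟩⟩

theorem conj_pow_pow {X : Type*} [Group X] {m : ℕ} (h : ∀ x : X, IsConj (x ^ m) x) (a : ℕ) (x : X) :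
    IsConj (x ^ m ^ a) x := by
  induction a with
  | zero => rw [pow_zero, pow_one]
  | succ a ih => rw [pow_succ, pow_mul]; exact (h _).trans ih

/-- `U₄(2)` has exponent `180`, and the only irrationality of its characters is `√-3`.
Hint: `PSU 4 E 2 ≃ SU 4 F4 2` (trivial centre, field iso).  `Pres.U42.pr` is a presentation of `SU 4 F4 2`
(order `Pres.U42.card`); map it to `K ≤ Perm (Fin 27)` (or 40/45 points) given by a chain (`Grp.Chn.of_schOK`),
onto by `Grp.Gen.of_surOK`, bijective by counting; class list by `Grp.Classes.of_clsOK` (20 classes);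
check `x ^ 180 = 1`, `x ^ 7 ~ x`, `x ^ 13 ~ x` on representatives (`trAny`); `7` and `13` generate the units `≡ 1 mod 3`
of `ℤ / 180` (`k ≡ 7 ^ a 13 ^ b`, `a < 12`, `b < 2`, by `decide` on `k % 180`). -/
theorem u42_pow {E : Type*} [Field E] [Fintype E] (hE : Fintype.card E = 4) (x : PSU 4 E 2) :
    x ^ 180 = 1 ∧ ∀ k : ℕ, k % 3 = 1 → Nat.Coprime k 10 → IsConj (x ^ k) x := by
  obtain ⟨e⟩ := Unitary.nonempty_su_congr (F := F4) (q := 2) TF.card hE 4
  have key : ∀ x : PSU 4 E 2, x ^ 180 = 1 ∧ IsConj (x ^ 7) x ∧ IsConj (x ^ 13) x := fun x => by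
    let f := (QuotientGroup.mk' (Subgroup.center (SU 4 E 2))).comp e.toMonoidHom
    obtain ⟨y, rfl⟩ : ∃ y, f y = x := ((QuotientGroup.mk'_surjective _).comp e.surjective) x
    obtain ⟨a, b, c⟩ := su42_pow y
    exact ⟨by rw [← map_pow, a, map_one], map_pow f y 7 ▸ f.map_isConj b, map_pow f y 13 ▸ f.map_isConj c⟩
  refine ⟨(key x).1, fun k h1 h2 => ?_⟩
  obtain ⟨a, -, b, -, h⟩ := (by decide +kernel : ∀ r < 180, r % 3 = 1 → Nat.gcd r 10 = 1 →
    ∃ a < 12, ∃ b < 2, 7 ^ a * 13 ^ b % 180 = r) (k % 180) (Nat.mod_lt _ (by norm_num)) (by omega)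
    (by rw [Nat.gcd_comm, Nat.gcd_rec, Nat.mod_mod_of_dvd _ (by norm_num), ← Nat.gcd_rec, Nat.gcd_comm]; exact h2)
  rw [pow_eq_pow_mod k (key x).1, ← h, ← pow_eq_pow_mod _ (key x).1, pow_mul]
  exact (conj_pow_pow (fun x => (key x).2.2) b _).trans (conj_pow_pow (fun x => (key x).2.1) a x)

theorem card_u42 {E : Type*} [Field E] [Fintype E] (hE : Fintype.card E = 4) : Nat.card (PSU 4 E 2) = 25920 := by
  have := Unitary.card_PSU (F := E) (q := 2) hE (n := 4) (by norm_num)
  rw [show Unitary.guOrder 2 4 = 77760 by decide +kernel, show Nat.gcd 4 (2 + 1) = 1 by decide] at this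
  omega

end Cfsg.Lib.Q5E
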