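import Cfsg.Agent.Lib.Q5E.NM
import Cfsg.Agent.Lib.Q5E.Pw
import Cfsg.Agent.Lib.Q4.Basic
import Cfsg.Agent.S0498

/-!
# Fields of definition of the exceptional subgroups of `SL₅(q)`
-/

set_option autoImplicit false

namespace Cfsg.Lib.Q5E

open scoped MatrixGroups Matrix
open Cfsg.Geo Cfsg.Lib.Asch Cfsg.Lib.Linear Cfsg.Lib.Q5 Cfsg.Lib.PSL2

variable {F : Type*} [Field F] [Fintype F] (p : ℕ) [hp : Fact p.Prime] [CharP F p] {P : Subgroup (G5 F)}

theorem card_of_fix (h : QS P) (hs : NoSub P) (k : ∀ x ∈ P, x.1.trace ^ p = x.1.trace) : Fintype.card F = p :=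
  D3.card_eq_of_fix_one p (hs.eq_top h.env fun x hx => by simpa [D3.mem_fixF] using k x hx)

theorem card_of_pm (h : QS P) (hs : NoSub P) (hQ : ¬ Quad P) (k : Q4.Pm p P) : Fintype.card F = p ^ 2 :=
  (k.real_or p h.env hs).resolve_left fun r => hQ (quad_of_real h.env r).2

theorem unitary_of_pm (h : QS P) (hF : Fintype.card F = p ^ 2) (k : Q4.Pm p P) :
    ∃ (σ : F ≃+* F) (f : (Fin 5 → F) → (Fin 5 → F) → F), IsUnitaryForm σ f ∧ FixesForm (matrixSet P) f := by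
  obtain ⟨σ, hσ⟩ := Unitary.exists_isBar hF
  obtain ⟨f, hf, hP⟩ := unitary_of_trace h.env hσ.invol hσ.exists_ne fun x hx => (k x hx).trans (hσ.eq _).symm
  obtain ⟨τ, hτ⟩ := hf.exists_isUnitary hσ.exists_ne
  exact ⟨τ, f, hτ, le_iso_iff.1 hP⟩

omit [Fintype F] in
theorem tr_pow (x : G5 F) : (x ^ p).1.trace = x.1.trace ^ p := by
  rw [Units.val_pow_eq_pow_val, T3.trace_pow]

theorem l2_zmod {X : Type*} [Group X] (e : L2 X 11) : Nonempty (X ≃* PSL(2, ZMod 11)) := by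
  obtain ⟨E, _, _, c, ⟨e⟩⟩ := e
  haveI := isSimpleGroup_psl (F := E) (by simp [c])
  obtain ⟨e'⟩ := Agent.S0498.result (G := PSL(2, E)) 11 (.inl rfl)
    (by rw [card_psl_of_eq (q := 11) (n := 660) (by simp [c]) (by norm_num)]; norm_num) (F := ZMod 11) (by simp)
  exact ⟨e.trans e'⟩

theorem ex_rp (h : QS P) (e : Sq P ≃* PSL(2, ZMod 11)) : ∃ ρ : S11 →* G5 F, Rp ρ ∧ ρ.range = P := by
  obtain ⟨i⟩ := (h.noZ_of_card (by
    rw [Nat.card_congr e.toEquiv, card_psl_of_eq (q := 11) (n := 660) (by simp) (by norm_num)]; norm_num)).iso e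
  refine ⟨P.subtype.comp (i.symm.toMonoidHom.comp toL), ⟨by simp [mem_center_SL2_iff], fun z => ?_,
    fun g => h.det (Subtype.prop _)⟩, ?_⟩
  · have : toL yy = 1 := by simpa using z
    exact absurd (toL_eq_one_iff.1 this) (by decide +kernel)
  · rw [MonoidHom.range_comp, MonoidHom.range_eq_top.2 (i.symm.surjective.comp toL_surjective),
      ← MonoidHom.range_eq_map, Subgroup.range_subtype]

theorem l11_field (h : QS P) (hs : NoSub P) {ρ : S11 →* G5 F} (r : Rp ρ) (e : ρ.range = P) (h11 : p ≠ 11) :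
    (QR p ∧ Fintype.card F = p) ∨ (NR p ∧ Q4.Pm p P) := by
  have n : (11 : F) ≠ 0 := fun z => h11 ((Nat.prime_dvd_prime_iff_eq hp.out fact_eleven.out).1
    ((CharP.cast_eq_zero_iff F p 11).1 (by exact_mod_cast z)))
  have : p % 11 ≠ 0 := fun z => h11 ((Nat.prime_dvd_prime_iff_eq fact_eleven.out hp.out).1
    (Nat.dvd_of_mod_eq_zero z)).symm
  subst e
  by_cases q : QR p
  · exact .inl ⟨q, card_of_fix p h hs (by rintro _ ⟨g, rfl⟩; exact r.fix p n q g)⟩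
  · have q' : NR p := by unfold QR at q; unfold NR; omega
    exact .inr ⟨q', by rintro _ ⟨g, rfl⟩; rw [← map_inv]; exact r.pm p n q' g⟩

theorem m11_field [CharP F 3] (h : QS P) (hs : NoSub P) (e : Spor.IsoM11 (Sq P)) : Fintype.card F = 3 := by
  haveI : Fact (Nat.Prime 3) := ⟨Nat.prime_three⟩
  obtain ⟨e⟩ := e
  obtain ⟨i⟩ := (h.noZ_of_card (by rw [Nat.card_congr e.toEquiv, Mathieu.card_M11]; norm_num)).iso e
  refine card_of_fix 3 h hs fun x hx => frobenius_inj F 3 ?_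
  rw [frobenius_def, frobenius_def, ← tr_pow, ← tr_pow, ← pow_mul]
  exact trace_conj (P.subtype.map_isConj (m11_pow ⟨i⟩ ⟨x, hx⟩))

theorem u42_field (h : QS P) (hs : NoSub P) (e : U42 (Sq P)) (h2 : p ≠ 2) (h3 : p ≠ 3) :
    (p % 6 = 1 ∧ Fintype.card F = p) ∨ (p % 6 = 5 ∧ Q4.Pm p P) := by
  obtain ⟨E, _, _, c, ⟨e⟩⟩ := e
  obtain ⟨i⟩ := (h.noZ_of_card (by rw [Nat.card_congr e.toEquiv, card_u42 c]; norm_num)).iso e
  have k1 : ∀ x ∈ P, x ^ 180 = 1 := fun x hx => congrArg Subtype.val (i.injective (a₁ := ⟨x, hx⟩ ^ 180) (a₂ := 1)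
    (by rw [map_pow, (u42_pow c _).1, map_one]))
  have k2 : ∀ x ∈ P, ∀ k : ℕ, k % 3 = 1 → Nat.Coprime k 10 → (x ^ k).1.trace = x.1.trace := fun x hx k a b => by
    have := i.symm.toMonoidHom.map_isConj ((u42_pow c (i ⟨x, hx⟩)).2 k a b)
    simp only [map_pow, MulEquiv.coe_toMonoidHom, MulEquiv.symm_apply_apply] at this
    exact trace_conj (P.subtype.map_isConj this)
  have n : ∀ r : ℕ, r.Prime → p ≠ r → p % r ≠ 0 := fun r hr a z =>
    a ((Nat.prime_dvd_prime_iff_eq hr hp.out).1 (Nat.dvd_of_mod_eq_zero z)).symm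
  have n2 := n 2 Nat.prime_two h2
  have n3 := n 3 Nat.prime_three h3
  have co : p ≠ 5 → Nat.Coprime p 10 := fun h5 => Nat.Coprime.mul_right (m := 2) (n := 5)
    ((Nat.coprime_primes hp.out Nat.prime_two).2 h2) ((Nat.coprime_primes hp.out Nat.prime_five).2 h5)
  by_cases q : p % 6 = 1
  · exact .inl ⟨q, card_of_fix p h hs fun x hx => by rw [← tr_pow, k2 x hx p (by omega) (co (by omega))]⟩
  refine .inr ⟨by omega, fun x hx => ?_⟩
  suffices ∀ x ∈ P, (x⁻¹).1.trace ^ p = x.1.trace from (this _ (inv_mem hx)).symm.trans (by rw [inv_inv]; rfl)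
  intro x hx
  by_cases h5 : p = 5
  · subst h5
    refine frobenius_inj F 5 ?_
    rw [frobenius_def, frobenius_def, ← tr_pow, ← tr_pow, ← tr_pow, ← k2 _ (pow_mem hx 5) 31 rfl (by norm_num),
      ← pow_mul, ← pow_mul, inv_pow, inv_eq_of_mul_eq_one_right (show x ^ (5 * 5) * x ^ (5 * 31) = 1 by rw [← pow_add, k1 x hx])]
  · rw [← tr_pow, ← k2 x hx (179 * p) (by omega) (Nat.Coprime.mul_left (by norm_num) (co h5)), pow_mul,
      inv_eq_of_mul_eq_one_right (show x * x ^ 179 = 1 by rw [← pow_succ', k1 x hx])]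

variable {H : Subgroup (G5 F)}

/-- Maximal subgroups of `SL₅(q)` in the residual class. -/
theorem lin_res (hH : IsMaximalIn (specialLinear (Fin 5) F) H) (hP : IsResidualCore H P) (hQ : ¬ Quad P)
    (hU : ¬ ∃ (σ : F ≃+* F) (f : (Fin 5 → F) → (Fin 5 → F) → F), IsUnitaryForm σ f ∧ FixesForm (matrixSet P) f)
    (k : LU P ∨ ((2 : F) ≠ 0 ∧ Quad P) ∨ Exc p (Sq P)) : Fintype.card F = p ∧
      ((Nonempty (Sq P ≃* PSL(2, ZMod 11)) ∧ p ≠ 3 ∧ QR p) ∨ (Spor.IsoM11 (Sq P) ∧ p = 3) ∨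
        (U42 (Sq P) ∧ p % 6 = 1)) := by
  have h := qs_of_core hP
  have hs : NoSub P := hP.no_subfield
  have u : ¬ Q4.Pm p P := fun a => hU (unitary_of_pm p h (card_of_pm p h hs hQ a) a)
  rcases k with (k | ⟨σ, q, f, hσ, hf, k⟩) | k | ⟨h11, e⟩ | ⟨rfl, e⟩ | ⟨h2, h3, e⟩
  · exact absurd k (hP.le.trans_lt hH.1).ne
  · obtain ⟨τ, hτ⟩ := hf.exists_isUnitary hσ.exists_ne
    exact absurd ⟨τ, f, hτ, le_iso_iff.1 (k.le.trans inf_le_left)⟩ hU
  · exact absurd k.2 hQ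
  · obtain ⟨e⟩ := l2_zmod e
    obtain ⟨ρ, r, a⟩ := ex_rp h e
    obtain ⟨b, c⟩ := (l11_field p h hs r a h11).resolve_right fun b => u b.2
    refine ⟨c, .inl ⟨⟨e⟩, ?_, b⟩⟩
    rintro rfl
    subst a
    refine l11_not_max c hH r h.env (fun n hn g => (hP.normal n hn _ ⟨g, rfl⟩).imp fun _ => Eq.symm) fun z =>
      hQ (quad_of_real h.env ?_).2
    rintro _ ⟨g, rfl⟩
    rw [← map_inv]
    exact r.real z g
  · exact ⟨m11_field h hs e, .inr (.inl ⟨e, rfl⟩)⟩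
  · obtain ⟨b, c⟩ := (u42_field p h hs e h2 h3).resolve_right fun b => u b.2
    exact ⟨c, .inr (.inr ⟨e, b⟩)⟩

/-- Maximal subgroups of `SU₅(q)` in the residual class. -/
theorem uni_res {q : ℕ} (hF : Fintype.card F = q ^ 2) (hlt : P < GU 5 F q ⊓ specialLinear (Fin 5) F) (h : QS P)
    (hs : NoSub P) (hQ : ¬ Quad P) (k : LU P ∨ ((2 : F) ≠ 0 ∧ Quad P) ∨ Exc p (Sq P)) :
    q = p ∧ ((Nonempty (Sq P ≃* PSL(2, ZMod 11)) ∧ NR p) ∨ (U42 (Sq P) ∧ p % 6 = 5)) := by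
  obtain ⟨σ, hσ⟩ := Unitary.exists_isBar hF
  have hf := sform_hermForm hσ 5
  have h1 : Fintype.card F ≠ p := fun e => by
    rw [hF] at e
    exact absurd (e ▸ hp.out : (q ^ 2).Prime).eq_one_of_pow (by norm_num)
  have h2 : Q4.Pm p P → q = p := fun e =>
    Nat.pow_left_injective two_ne_zero (hF.symm.trans (card_of_pm p h hs hQ e))
  rcases k with (k | ⟨τ, r, f, hτ, hf', k⟩) | k | ⟨h11, e⟩ | ⟨rfl, e⟩ | ⟨h3, h4, e⟩
  · exact absurd ((k.ge.trans hlt.le).trans (inf_le_left.trans iso_le_sim)) (not_sl_le_sim (by simp) hf)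
  · obtain rfl : r = q := Nat.pow_left_injective two_ne_zero (hτ.card.symm.trans hσ.card)
    obtain rfl : τ = σ := RingHom.ext fun a => (hτ.eq a).trans (hσ.eq a).symm
    obtain ⟨c, -, hc⟩ := hf'.unique hf h.env (by
      rintro _ ⟨x, hx, rfl⟩
      exact (hf'.mem_iso.1 (k.le hx).1).trans (hf.mem_iso.1 (hlt.le hx).1).symm)
    exact absurd (k.ge.trans' (inf_le_inf_right _ fun g hg u v => by rw [hc, hc]; exact congrArg _ (hg u v)))
      hlt.not_ge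
  · exact absurd k.2 hQ
  · obtain ⟨e⟩ := l2_zmod e
    obtain ⟨ρ, r, a⟩ := ex_rp h e
    obtain ⟨b, c⟩ := (l11_field p h hs r a h11).resolve_left fun b => h1 b.2
    exact ⟨h2 c, .inl ⟨⟨e⟩, b⟩⟩
  · exact absurd (m11_field h hs e) h1
  · obtain ⟨b, c⟩ := (u42_field p h hs e h3 h4).resolve_left fun b => h1 b.2
    exact ⟨h2 c, .inr ⟨e, b⟩⟩

end Cfsg.Lib.Q5E
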