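import Cfsg.Agent.Lib.Q5E.L11
import Cfsg.Agent.Lib.Asch.Small
import Cfsg.Agent.Lib.Linear.Aut
import Cfsg.Agent.Lib.Pres.SL2

/-!
# Representations with equal characters; `L₂(11)` is not maximal in `SL₅(3)`
-/

set_option autoImplicit false

namespace Cfsg.Lib.Q5E

open scoped MatrixGroups Matrix
open Cfsg.Geo Cfsg.Lib.Asch Cfsg.Lib.Linear Cfsg.Lib.Q5 Cfsg.Lib.PSL2 Cfsg.Lib.Root

/-- An absolutely irreducible representation is determined by its character. -/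
theorem conj_of_trace {G F : Type*} {ι : Type} [Group G] [Field F] [Fintype ι] [DecidableEq ι] [Nonempty ι] {ρ σ : G →* GL ι F}
    (h : Submodule.span F (Set.range fun g => (ρ g).1) = ⊤) (e : ∀ g, (ρ g).1.trace = (σ g).1.trace) :
    ∃ θ : Matrix ι ι F ≃ₐ[F] Matrix ι ι F, ∀ g, θ (σ g).1 = (ρ g).1 := by
  let L : (G →* GL ι F) → MonoidAlgebra F G →ₐ[F] Matrix ι ι F := fun τ =>
    MonoidAlgebra.lift F _ G ((Units.coeHom _).comp τ)
  have l1 : ∀ τ g, L τ (.single g 1) = (τ g).1 := fun τ g => by simp [L]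
  have l2 : ∀ a, (L ρ a).trace = (L σ a).trace := fun a => by
    induction a using MonoidAlgebra.induction_on with
    | of g => exact (congrArg _ (l1 ρ g)).trans ((e g).trans (congrArg _ (l1 σ g)).symm)
    | add a b ha hb => rw [map_add, map_add, Matrix.trace_add, Matrix.trace_add, ha, hb]
    | smul c a ha => rw [map_smul, map_smul, Matrix.trace_smul, Matrix.trace_smul, ha]
  have s : Function.Surjective (L ρ) := (LinearMap.range_eq_top (f := (L ρ).toLinearMap)).1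
    (eq_top_iff.2 (h.ge.trans (Submodule.span_le.2 (by rintro _ ⟨g, rfl⟩; exact ⟨.single g 1, l1 ρ g⟩))))
  have k : ∀ a, L σ a = 0 → L ρ a = 0 := fun a z => eq_zero_of_trace_mul _ fun X => by
    obtain ⟨b, rfl⟩ := s X
    rw [← map_mul, l2, map_mul, z, zero_mul, Matrix.trace_zero]
  obtain ⟨θ, hθ⟩ := (((LinearMap.ker (L σ).toLinearMap).liftQ (L ρ).toLinearMap k).comp
    (L σ).toLinearMap.quotKerEquivRange.symm.toLinearMap).exists_extend
  have t : ∀ a, θ (L σ a) = L ρ a := fun a => (DFunLike.congr_fun hθ ⟨L σ a, a, rfl⟩).trans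
    (congrArg ((LinearMap.ker (L σ).toLinearMap).liftQ (L ρ).toLinearMap k)
      ((L σ).toLinearMap.quotKerEquivRange_symm_apply_image a ⟨a, rfl⟩))
  have ts : Function.Surjective θ := fun X => (s X).imp' (L σ) fun a ha => (t a).trans ha
  have ti := LinearMap.injective_iff_surjective.2 ts
  have s' : Function.Surjective (L σ) := fun X => (s (θ X)).imp fun a ha => ti ((t a).trans ha)
  refine ⟨.ofBijective (AlgHom.ofLinearMap θ (by simpa using t 1) fun X Y => ?_) ⟨ti, ts⟩,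
    fun g => ?_⟩
  · obtain ⟨a, rfl⟩ := s' X
    obtain ⟨b, rfl⟩ := s' Y
    rw [← map_mul, t, t, t, map_mul]
  · rw [← l1, ← l1]; exact t _

theorem gen_s11 {K : Subgroup S11} (h1 : yy ∈ K) (h2 : xL (-1) ∈ K) (g : S11) : g ∈ K := by
  refine Matrix.SL2.transvection_induction (· ∈ K) (fun i j h c => ?_) (fun _ _ => mul_mem) g
  obtain ⟨n, rfl⟩ := ZMod.natCast_zmod_surjective c
  have k : ∀ m : ℕ, xL (m : ZMod 11) ∈ K := fun m => by
    induction m with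
    | zero => simp
    | succ m ih => rw [Nat.cast_succ, xL_add, ← neg_neg (1 : ZMod 11), xL_neg]; exact mul_mem ih (inv_mem h2)
  fin_cases i <;> fin_cases j
  · exact absurd rfl h
  · convert pow_mem h1 n
    rw [yy_pow]
    apply sl_ext <;> simp [Matrix.SpecialLinearGroup.transvection_coe]
  · convert k n
    apply sl_ext <;> simp [Matrix.SpecialLinearGroup.transvection_coe]
  · exact absurd rfl h

namespace M11

/-- vectors -/
abbrev V : Type := Fin 5 → ZMod 3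

/-- an element of order eleven -/
def Y : G5 (ZMod 3) := mkGL !![0, 0, 0, 0, 1; 1, 0, 0, 0, 1; 0, 1, 0, 0, 2; 0, 0, 1, 0, 1; 0, 0, 0, 1, 0]
  !![2, 1, 0, 0, 0; 1, 0, 1, 0, 0; 2, 0, 0, 1, 0; 0, 0, 0, 0, 1; 1, 0, 0, 0, 0] (by decide +kernel)
/-- its cube -/
def Y3 : G5 (ZMod 3) := mkGL !![0, 0, 1, 0, 1; 0, 0, 1, 1, 1; 0, 0, 2, 1, 0; 1, 0, 1, 2, 2; 0, 1, 0, 1, 2]
  !![2, 2, 2, 1, 0; 0, 1, 1, 0, 1; 2, 1, 2, 0, 0; 2, 1, 0, 0, 0; 2, 2, 1, 0, 0] (by decide +kernel)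
/-- an involution -/
def T : G5 (ZMod 3) := mkGL !![0, 0, 0, 0, 1; 0, 1, 0, 0, 0; 0, 0, 0, 1, 0; 0, 0, 1, 0, 0; 1, 0, 0, 0, 0]
  !![0, 0, 0, 0, 1; 0, 1, 0, 0, 0; 0, 0, 0, 1, 0; 0, 0, 1, 0, 0; 1, 0, 0, 0, 0] (by decide +kernel)
/-- an element of order five -/
def h : G5 (ZMod 3) := mkGL !![0, 2, 0, 1, 1; 1, 1, 0, 1, 0; 1, 2, 0, 0, 0; 2, 0, 1, 2, 0; 1, 1, 0, 2, 0]
  !![0, 1, 2, 0, 1; 0, 1, 1, 0, 1; 0, 0, 2, 1, 2; 0, 2, 0, 0, 1; 1, 2, 1, 0, 0] (by decide +kernel)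
/-- the opposite root element -/
def v : G5 (ZMod 3) := mkGL !![0, 0, 1, 0, 0; 1, 0, 0, 0, 1; 1, 0, 0, 1, 0; 2, 1, 0, 0, 0; 1, 0, 0, 0, 0]
  !![0, 0, 0, 0, 1; 0, 0, 0, 1, 1; 1, 0, 0, 0, 0; 0, 0, 1, 0, 2; 0, 1, 0, 0, 2] (by decide +kernel)
/-- an element of `M₁₁` outside `L₂(11)` -/
def m : G5 (ZMod 3) := mkGL !![1, 0, 0, 0, 0; 0, 0, 1, 0, 0; 0, 1, 0, 0, 0; 0, 0, 0, 0, 2; 0, 0, 0, 2, 0]
  !![1, 0, 0, 0, 0; 0, 0, 1, 0, 0; 0, 1, 0, 0, 0; 0, 0, 0, 0, 2; 0, 0, 0, 2, 0] (by decide +kernel)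
/-- a transvection -/
def u : G5 (ZMod 3) := mkGL !![1, 1, 0, 0, 0; 0, 1, 0, 0, 0; 0, 0, 1, 0, 0; 0, 0, 0, 1, 0; 0, 0, 0, 0, 1]
  !![1, 2, 0, 0, 0; 0, 1, 0, 0, 0; 0, 0, 1, 0, 0; 0, 0, 0, 1, 0; 0, 0, 0, 0, 1] (by decide +kernel)
/-- an orbit of length eleven -/
def E : List V := [![1, 0, 0, 0, 0], ![0, 1, 0, 0, 0], ![0, 0, 1, 0, 0], ![0, 0, 0, 1, 0], ![0, 0, 0, 0, 1],
  ![1, 1, 2, 1, 0], ![0, 1, 1, 2, 1], ![1, 1, 0, 2, 2], ![2, 0, 2, 2, 2], ![2, 1, 1, 1, 2], ![2, 1, 2, 0, 1]]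

theorem y3 : Y ^ 3 = Y3 := Units.ext (by decide +kernel)
theorem yvy : Y * v * Y = T := Units.ext (by decide +kernel)
theorem y11 : Y ^ 11 = 1 := by
  rw [show Y ^ 11 = Y ^ 3 * Y ^ 3 * Y ^ 3 * Y * Y by group, y3]
  exact Units.ext (by decide +kernel)

theorem ex_hom : ∃ φ : S11 →* G5 (ZMod 3), φ yy = Y ∧ φ (xL (-1)) = v := by
  have pw : ∀ a b : ℕ, (a : ZMod 11) = b → Y ^ a = Y ^ b := fun a b e => by
    rw [pow_eq_pow_mod a y11, pow_eq_pow_mod b y11, (ZMod.natCast_eq_natCast_iff' a b 11).1 e]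
  have c : h * Y * h⁻¹ = Y ^ 4 := by rw [pow_succ, y3]; exact Units.ext (by decide +kernel)
  obtain ⟨φ, h1, h2, -⟩ := Pres.exists_sl2_hom (ζ := (⟨2, 6, by decide, by decide⟩ : (ZMod 11)ˣ)) (u := Y) (v := v)
    (h := h) (X := fun a => Y ^ a.val)
    (fun a => by
      have : ∀ a : (ZMod 11)ˣ, ∃ n : Fin 10, (⟨2, 6, by decide, by decide⟩ : (ZMod 11)ˣ) ^ n.1 = a := by decide +kernel
      exact (this a).imp' Fin.val fun _ => id)
    ⟨fun a b => by rw [← pow_add]; exact pw _ _ (by simp), pow_one _, fun a => by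
      rw [← conj_pow, c, ← pow_mul]; exact pw _ _ (by simp; norm_num)⟩
    (Units.ext (by decide +kernel)) (by rw [yvy]; exact Units.ext (by decide +kernel)) (by
      rw [yvy]
      change Y ^ 2 * (T * Y ^ ((2 : ZMod 11)⁻¹).val * T⁻¹) * Y ^ 2 = _
      rw [show ((2 : ZMod 11)⁻¹).val = 3 + 3 by decide +kernel, pow_add, y3, mul_assoc, ← eq_inv_mul_iff_mul_eq,
        ← eq_mul_inv_iff_mul_eq]
      exact Units.ext (by decide +kernel))
  exact ⟨φ, (h1 1).trans (pow_one _), h2⟩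

/-- the orbit under `Y` -/
def orb (w : V) : List V := List.iterate (Y.1 *ᵥ ·) w 11

set_option synthInstance.maxSize 4000 in
theorem chk : ∀ a b c d e : ZMod 3, (![a, b, c, d, e] = 0 ∨ ![a, b, c, d, e] ∈ E ∨ -![a, b, c, d, e] ∈ E) ∨
    ∃ u ∈ orb ![a, b, c, d, e], (T.1 *ᵥ u :: orb ![a, b, c, d, e]).Nodup := by decide +kernel

/-- vectors in short orbits -/
def Sh (φ : S11 →* G5 (ZMod 3)) : Set V :=
  {w | ∃ S : Finset V, S.card ≤ 11 ∧ w ∈ S ∧ ∀ g, ∀ x ∈ S, (φ g).1 *ᵥ x ∈ S}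

variable {φ : S11 →* G5 (ZMod 3)} (h1 : φ yy = Y) (h2 : φ (xL (-1)) = v)
include h1 h2

theorem stab (g : S11) : ∀ x ∈ E, (φ g).1 *ᵥ x ∈ E :=
  gen_s11 (K := (vstab {x | x ∈ E}).comap φ) (by
    change ∀ x ∈ E, (φ yy).1 *ᵥ x ∈ E
    rw [h1]; decide +kernel) (by
    change ∀ x ∈ E, (φ _).1 *ᵥ x ∈ E
    rw [h2]; decide +kernel) g

theorem rp : Rp φ := by
  refine ⟨?_, by rw [h1]; exact fun e => absurd (congrArg Units.val e) (by decide +kernel), fun g =>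
    mem_specialLinear.1 (gen_s11 (K := (specialLinear _ _).comap φ) (mem_specialLinear.2 ?_) (mem_specialLinear.2 ?_) g)⟩
  · rw [show (-1 : S11) = yy * xL (-1) * yy * (yy * xL (-1) * yy) by decide +kernel, map_mul, map_mul, map_mul, h1,
      h2, yvy]
    exact Units.ext (by decide +kernel)
  · rw [h1]; decide +kernel
  · rw [h2]; decide +kernel

theorem mem_sh {w : V} : w ∈ Sh φ ↔ w = 0 ∨ w ∈ E ∨ -w ∈ E := by
  constructor
  · rintro ⟨S, c, hw, hS⟩
    have e : ![w 0, w 1, w 2, w 3, w 4] = w := by ext i; fin_cases i <;> rfl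
    have := chk (w 0) (w 1) (w 2) (w 3) (w 4)
    rw [e] at this
    refine this.resolve_right ?_
    rintro ⟨x, hx, n⟩
    have o : ∀ x ∈ orb w, x ∈ S := fun x hx => by
      obtain ⟨k, -, rfl⟩ := List.mem_iterate.1 hx
      clear hx
      induction k with
      | zero => exact hw
      | succ k ih => rw [Function.iterate_succ_apply', ← h1]; exact hS _ _ (h1 ▸ ih)
    have := Finset.card_le_card (s := (T.1 *ᵥ x :: orb w).toFinset) (t := S) fun z hz => by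
      rcases List.mem_cons.1 (List.mem_toFinset.1 hz) with rfl | hz
      · rw [← yvy, ← h1, ← h2, ← map_mul, ← map_mul]; exact hS _ _ (o x hx)
      · exact o z hz
    rw [List.toFinset_card_of_nodup n, List.length_cons, orb, List.length_iterate] at this
    omega
  · rintro (rfl | e | e)
    · exact ⟨{0}, by simp, by simp, by simp⟩
    · exact ⟨E.toFinset, List.toFinset_card_le _, List.mem_toFinset.2 e, by simpa using stab h1 h2⟩
    · refine ⟨(E.map Neg.neg).toFinset, List.toFinset_card_le _, 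
        List.mem_toFinset.2 (List.mem_map.2 ⟨_, e, neg_neg _⟩), fun g x hx => ?_⟩
      obtain ⟨y, hy, rfl⟩ := List.mem_map.1 (List.mem_toFinset.1 hx)
      exact List.mem_toFinset.2 (List.mem_map.2 ⟨_, stab h1 h2 g y hy, (Matrix.mulVec_neg _ _).symm⟩)

theorem not_max {H : Subgroup (G5 (ZMod 3))} (hM : IsMaximalIn (specialLinear _ _) H)
    (hN : ∀ n ∈ H, ∀ g, ∃ g', n * φ g * n⁻¹ = φ g') : False := by
  have k : ∀ g : G5 (ZMod 3), g ∈ vstab (Sh φ) ↔ ∀ w : V, w = 0 ∨ w ∈ E ∨ -w ∈ E →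
      g.1 *ᵥ w = 0 ∨ g.1 *ᵥ w ∈ E ∨ -(g.1 *ᵥ w) ∈ E := fun g => by simp only [mem_vstab, mem_sh h1 h2]
  have hm : m ∈ H := (eq_inf_of_max hM (M := vstab (Sh φ)) (fun n hn w ⟨S, c, hw, hS⟩ => ?_) fun e => ?_).ge
    ⟨(k _).2 ?_, mem_specialLinear.2 (by decide +kernel)⟩
  · obtain ⟨g, e⟩ := hN m hm yy
    have := stab h1 h2 g ![0, 1, 0, 0, 0] (by decide +kernel)
    rw [← e, h1] at this
    exact absurd this (by decide +kernel)
  · refine ⟨S.image (n.1 *ᵥ ·), Finset.card_image_le.trans c, Finset.mem_image_of_mem _ hw, fun g x hx => ?_⟩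
    obtain ⟨y, hy, rfl⟩ := Finset.mem_image.1 hx
    obtain ⟨g', e⟩ := hN _ (inv_mem hn) g
    refine Finset.mem_image.2 ⟨_, hS g' y hy, ?_⟩
    rw [← e, ← GL_mul_mulVec, ← GL_mul_mulVec, inv_inv, mul_assoc, mul_inv_cancel_left]
  · exact absurd ((k u).1 (e (mem_specialLinear.2 (by decide +kernel))) ![0, 1, 0, 0, 0] (by decide +kernel))
      (by decide +kernel)
  · have : ∀ w ∈ E, m.1 *ᵥ w ∈ E ∨ -(m.1 *ᵥ w) ∈ E := by decide +kernel
    rintro w (rfl | e | e)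
    · exact .inl (Matrix.mulVec_zero _)
    · exact .inr (this w e)
    · have := this _ e
      rw [Matrix.mulVec_neg, neg_neg] at this
      exact .inr this.symm

end M11

/-- `L₂(11)` is not maximal in `SL₅(3)`. -/
theorem l11_not_max {F : Type*} [Field F] [Fintype F] (hF : Fintype.card F = 3) {H : Subgroup (G5 F)}
    (hM : IsMaximalIn (specialLinear _ _) H) {ρ : S11 →* G5 F} (h : Rp ρ) (he : env ρ.range = ⊤)
    (hN : ∀ n ∈ H, ∀ g, ∃ g', n * ρ g * n⁻¹ = ρ g') (hr : ch ρ yy⁻¹ ≠ ch ρ yy) : False := by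
  obtain ⟨φ, h1, h2⟩ := M11.ex_hom
  let e : ZMod 3 ≃+* F := FiniteField.ringEquivOfCardEq (by simp [hF])
  haveI : CharP F 3 := charP_of_injective_ringHom (f := (e : ZMod 3 →+* F)) e.injective 3
  have key : ∀ Φ : G5 (ZMod 3) ≃* G5 F, (specialLinear _ _).comap (Φ : G5 (ZMod 3) →* G5 F) = specialLinear _ _ →
      ch ρ yy = ch ((Φ : G5 (ZMod 3) →* G5 F).comp φ) yy → False := fun Φ s t => by
    have r := M11.rp h1 h2
    have k : Rp ((Φ : G5 (ZMod 3) →* G5 F).comp φ) := ⟨by simp [r.neg], by simpa using r.ne, fun g =>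
      mem_specialLinear.1 (s.ge (mem_specialLinear.2 (r.det g)))⟩
    obtain ⟨θ, hθ⟩ := conj_of_trace (by
      convert span_eq_top_of_adjoin he
      ext; simp [matrixSet]) (h.eq_three k t)
    obtain ⟨C, hC⟩ := exists_cj_of_algEquiv θ
    have q : ∀ g, ρ g = (Φ.trans (MulAut.conj C)) (φ g) := fun g => Units.ext (by rw [← hθ, hC, cj_coe]; rfl)
    have := IsMaximalIn.comap (Φ.trans (MulAut.conj C)) hM
    rw [show (specialLinear _ _).comap (Φ.trans (MulAut.conj C) : G5 (ZMod 3) →* G5 F) = specialLinear _ _ by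
      rw [← s]; ext x
      simp only [Subgroup.mem_comap, mem_specialLinear]
      exact (Matrix.det_units_conj C _).congr_left] at this
    refine M11.not_max h1 h2 this fun n hn g => (hN _ hn g).imp fun g' a => (Φ.trans (MulAut.conj C)).injective ?_
    rw [map_mul, map_mul, map_inv, ← q, ← q]
    exact a
  have s := h.ch_yy (by
    rw [← map_ofNat e 11, map_ne_zero]; decide)
  obtain ⟨a, ha⟩ := e.surjective (ch ρ yy)
  obtain ⟨b, hb⟩ := e.surjective (ch ρ yy⁻¹)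
  rw [← ha, ← hb] at s hr
  have t : ∀ g : G5 (ZMod 3), (tg e 1 g).1.trace = e g.1.trace := fun g => by
    rw [coe_tg, trace_cj]; exact (AddMonoidHom.map_trace (e : ZMod 3 →+* F) _).symm
  rcases (by decide : ∀ a b : ZMod 3, 5 * (1 + a + b) = 0 → b ≠ a → a = 0 ∨ a = 2) a b
    (e.injective (by simpa [map_ofNat] using s)) (fun z => hr (congrArg e z)) with rfl | rfl
  · refine key (tg e 1) (comap_sl e 1) ?_
    rw [← ha]
    exact ((t _).trans (by rw [h1]; exact congrArg e (by decide +kernel))).symm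
  · refine key ((tg e 1).trans graphGL) ?_ ?_
    · rw [← comap_sl e (1 : G5 F)]; ext x
      simp only [Subgroup.mem_comap, mem_specialLinear]
      change (graphGL (tg e 1 x)).1.det = 1 ↔ (tg e 1 x).1.det = 1
      rw [graphGL_coe, Matrix.det_transpose, ← mem_specialLinear, inv_mem_iff, mem_specialLinear]
    · rw [← ha]
      change _ = (graphGL (tg e 1 (φ yy))).1.trace
      rw [graphGL_coe, Matrix.trace_transpose, ← map_inv, t, h1]
      exact congrArg e (by decide +kernel)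

end Cfsg.Lib.Q5E
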